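import Mathlib
import Cfsg.Agent.Lib.Tits.Defs

/-! Fong-Seitz (S1144): definitions (blueprint/FS). -/

set_option autoImplicit false

namespace FS

open H63.St Tits MulAction

/-- The gonalities. -/
abbrev Ok (n : ℕ) : Prop := n = 3 ∨ n = 4 ∨ n = 6 ∨ n = 8

/-- `k` lies strictly between `r` and `s` on the short arc from `r` to `s`. -/
abbrev Btw {n : ℕ} (r s k : ZMod (2 * n)) : Prop :=
  0 < (k - r).val ∧ (k - r).val < (s - r).val ∧ (s - r).val < n

/-- The dihedral root system with `2 n` roots: positive roots `1, .., n`, simple roots `1` and `n`. -/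
def Dih {n : ℕ} (hn : Ok n) : Roots (ZMod (2 * n)) (Fin 2) where
  Pos r := 1 ≤ r.val ∧ r.val ≤ n
  neg r := r + n
  α i := if i = 0 then 1 else n
  refl r := Equiv.subLeft (2 * r + n)
  Itv r s := {k | Btw r s k ∨ Btw s r k}
  neg_neg := by rcases hn with rfl | rfl | rfl | rfl <;> decide
  pos_neg := by rcases hn with rfl | rfl | rfl | rfl <;> decide
  pos_α := by rcases hn with rfl | rfl | rfl | rfl <;> decide
  refl_α := by rcases hn with rfl | rfl | rfl | rfl <;> decide
  refl_neg := by rcases hn with rfl | rfl | rfl | rfl <;> decide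
  refl_refl := by rcases hn with rfl | rfl | rfl | rfl <;> decide
  refl_conj := by rcases hn with rfl | rfl | rfl | rfl <;> decide +kernel
  refl_pos := by rcases hn with rfl | rfl | rfl | rfl <;> decide
  itv_symm := fun _ _ _ h => h.symm
  itv_refl := by
    simp only [Set.mem_ofPred_eq]; rcases hn with rfl | rfl | rfl | rfl <;> decide +kernel
  itv_neg := by
    simp only [Set.mem_ofPred_eq]; rcases hn with rfl | rfl | rfl | rfl <;> decide +kernel
  itv_pos := by
    simp only [Set.mem_ofPred_eq]; rcases hn with rfl | rfl | rfl | rfl <;> decide +kernel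
  α_not_itv := by
    simp only [Set.mem_ofPred_eq]; rcases hn with rfl | rfl | rfl | rfl <;> decide +kernel
  itv_sub := by
    simp only [Set.mem_ofPred_eq, Set.subset_def]
    rcases hn with rfl | rfl | rfl | rfl <;> decide +kernel
  ind := fun P h1 h2 r hr => by
    have k : ∀ r : ZMod (2 * n), 1 ≤ r.val ∧ r.val ≤ n → r = 1 ∨ r = n ∨ Btw 1 (n : ZMod (2 * n)) r := by
      rcases hn with rfl | rfl | rfl | rfl <;> decide
    rcases k r hr with rfl | rfl | e
    exacts [h1 0, h1 1, h2 1 n r (by rcases hn with rfl | rfl | rfl | rfl <;> decide)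
      (by rcases hn with rfl | rfl | rfl | rfl <;> decide)
      (by rcases hn with rfl | rfl | rfl | rfl <;> decide) (h1 0) (h1 1) (Or.inl e)]

section dih

variable {n : ℕ} (hn : Ok n)

include hn in
theorem fin : Finite (ZMod (2 * n)) := by rcases hn with rfl | rfl | rfl | rfl <;> infer_instance

instance (r : ZMod (2 * n)) : Decidable ((Dih hn).Pos r) := inferInstanceAs (Decidable (_ ∧ _))

instance (r s k : ZMod (2 * n)) : Decidable (k ∈ (Dih hn).Itv r s) :=
  inferInstanceAs (Decidable (_ ∨ _))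

theorem α0 : (Dih hn).α 0 = 1 := rfl

theorem α1 : (Dih hn).α 1 = n := rfl

theorem neg_eq (r : ZMod (2 * n)) : (Dih hn).neg r = r + n := rfl

theorem σ0 (r : ZMod (2 * n)) : (Dih hn).σ 0 r = n + 2 - r := by
  revert r; rcases hn with rfl | rfl | rfl | rfl <;> decide

theorem σ1 (r : ZMod (2 * n)) : (Dih hn).σ 1 r = n - r := by
  revert r; rcases hn with rfl | rfl | rfl | rfl <;> decide

theorem rot_pow (j : ℕ) (r : ZMod (2 * n)) : (((Dih hn).σ 0 * (Dih hn).σ 1) ^ j) r = r + 2 * j := by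
  induction j with
  | zero => simp
  | succ j ih => rw [pow_succ', Equiv.Perm.mul_apply, Equiv.Perm.mul_apply, ih, σ0, σ1]; push_cast; ring

theorem cm01 : cm (Dih hn) 0 1 = n := by
  have h0 : 0 < n := by omega
  refine (orderOf_eq_iff h0).2 ⟨Equiv.ext fun r => ?_, fun m hm h1 e => ?_⟩
  · rw [rot_pow, Equiv.Perm.one_apply, add_eq_left]
    exact_mod_cast ZMod.natCast_self (2 * n)
  · have := rot_pow hn m 0
    rw [e, Equiv.Perm.one_apply, zero_add] at this
    have h2 : ((2 * m : ℕ) : ZMod (2 * n)) = 0 := by exact_mod_cast this.symm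
    rw [ZMod.natCast_eq_zero_iff] at h2
    have := Nat.le_of_dvd (by omega) h2
    omega

theorem cm10 : cm (Dih hn) 1 0 = n := by
  have := cm01 hn
  rw [cm] at this ⊢
  rw [← orderOf_inv, mul_inv_rev, Roots.σ_inv, Roots.σ_inv, this]

theorem cm_self (i : Fin 2) : cm (Dih hn) i i = 1 := by rw [cm, Roots.σ_mul_self, orderOf_one]

theorem irr : Irr (Dih hn) := fun i => by
  fin_cases i
  · exact ⟨1, (cm01 hn).symm ▸ by omega⟩
  · exact ⟨0, (cm10 hn).symm ▸ by omega⟩

theorem rot_mem (j : ℕ) : ((Dih hn).σ 0 * (Dih hn).σ 1) ^ j ∈ (Dih hn).W :=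
  pow_mem (mul_mem ((Dih hn).σ_mem_W 0) ((Dih hn).σ_mem_W 1)) j

theorem full : Full (Dih hn) := fun r s k h1 h2 h3 h4 h5 => by
  have a : ∀ j : Fin 8, (Dih hn).Pos (r + 2 * (j : ℕ)) → (Dih hn).Pos (s + 2 * (j : ℕ)) →
      (Dih hn).Pos (k + 2 * (j : ℕ)) := fun j => by
    simpa only [rot_pow] using h3 _ (rot_mem hn j)
  have b : ∀ j : Fin 8, (Dih hn).Pos (n - r + 2 * (j : ℕ)) → (Dih hn).Pos (n - s + 2 * (j : ℕ)) →
      (Dih hn).Pos (n - k + 2 * (j : ℕ)) := fun j => by
    simpa only [Equiv.Perm.mul_apply, rot_pow, σ1] using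
      h3 _ (mul_mem (rot_mem hn j) ((Dih hn).σ_mem_W 1))
  rw [neg_eq] at h2
  clear h3
  revert r s k
  rcases hn with rfl | rfl | rfl | rfl <;> decide +kernel

end dih

/-- The stabiliser of `c` has a nilpotent normal subgroup with the same orbits. -/
def Spl (G : Type*) {X : Type*} [Group G] [MulAction G X] (c : X) : Prop :=
  ∃ U : Subgroup G, U ≤ stabilizer G c ∧ stabilizer G c ≤ Subgroup.normalizer (U : Set G) ∧
    Group.IsNilpotent U ∧ ∀ b ∈ stabilizer G c, ∀ x : X, ∃ u ∈ U, u • x = b • x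

/-- A finite Moufang `n`-gon whose root groups are `p`-groups that generate `G`. -/
structure Dat {n : ℕ} (hn : Ok n) (G X : Type*) [Group G] [MulAction G X] (p : ℕ) where
  /-- the polygon -/
  D : Bd (Dih hn) G X
  /-- its root group datum -/
  E : RGD (Dih hn) G
  hX : E.X = D.U
  mouf : ∀ r, D.Mouf r
  faith : E.Faith
  top : E.Gp = ⊤
  pg : ∀ r, IsPGroup p (E.X r)
  nb : ∀ i, q E i = D.nb i

end FS
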