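import Mathlib
import Cfsg.Agent.Lib.FS.Defs
import Cfsg.Agent.Lib.Tits.Uni
import Cfsg.Agent.Lib.Tits.Plane
import Cfsg.Agent.Lib.Tits.ModA
import Cfsg.Agent.Lib.Tits.Emb

set_option autoImplicit false

open scoped commutatorElement

namespace FS

open H63.St Cfsg Tits MulAction

theorem lie3 {hn : Ok 3} {G X : Type*} [Group G] [Finite G] [IsSimpleGroup G] [Finite X]
    [MulAction G X] {p : ℕ} [Fact p.Prime] (T : Dat hn G X p) : Lie G := by
  have hF := full hn
  have hE : Good T.E := ⟨T.faith, fun i j h => T.D.exists_a2 hF h T.E T.hX T.mouf⟩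
  obtain ⟨K, _, _, hK⟩ := hE.2 0 1 (cm01 hn)
  have hZ : Subgroup.center G = ⊥ := by
    rcases (inferInstance : (Subgroup.center G).Normal).eq_bot_or_eq_top with h | h
    · exact h
    · exfalso
      obtain ⟨S, hS⟩ := hK
      have c : S.x 0 1 1 ∈ Subgroup.center G := h ▸ Subgroup.mem_top _
      have k := S.c1 (i := 0) (j := 1) (l := 2) (by decide) (by decide) (by decide) 1 1
      have k0 : S.x 0 2 0 = 1 := by
        have := S.add (i := 0) (j := 2) (by decide) 0 0
        rw [add_zero] at this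
        exact mul_left_cancel (this.trans (mul_one _).symm)
      rw [commutatorElement_def, ← Subgroup.mem_center_iff.1 c, mul_one] at k
      simp only [mul_inv_cancel_right, mul_inv_cancel] at k
      exact one_ne_zero ((hS 0 2 (by decide)).1 (k.symm.trans k0.symm))
  have g0 : Good (H63.St.SL.E 2 K) :=
    ⟨SL.faith, fun i j e => ⟨K, _, inferInstance, ModA.a2 K (by
      rw [cm_VA, mA] at e
      by_contra k
      split_ifs at e <;> omega)⟩⟩
  obtain ⟨E', g1, g2, g3, -⟩ := transport (R := (VA 2).toRoots) (R' := Dih hn) hF (g := id)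
    Function.surjective_id (fun i j => by
      rw [cm_VA]
      fin_cases i <;> fin_cases j
      exacts [cm_self hn _, cm01 hn, cm10 hn, cm_self hn _]) g0
  obtain ⟨Z, hZ'⟩ := loc_start hF hE g1 (cm01 hn) (by
    rw [g3, hK.card.1, ← Nat.card_eq_fintype_card]
    exact (Nat.card_range_of_injective (ModA.tv_inj ((VA 2).toRoots.α 0).2)).symm)
  rw [show ({0, 1} : Set (Fin 2)) = Set.univ from by
    ext i; fin_cases i <;> simp] at hZ'
  obtain ⟨e⟩ := equiv_of_loc T.faith g1.1 T.top (g2.trans SL.top) hZ hZ'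
  exact .inl ⟨K, _, inferInstance, 3, by omega, by omega, ⟨e⟩⟩

end FS
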