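import Mathlib
import Cfsg.Agent.Lib.FS.Defs
import Cfsg.Agent.Lib.Tits.Uni
import Cfsg.Agent.Lib.Tits.Main
import Cfsg.Agent.Lib.FS4.R
import Cfsg.Agent.Lib.FS4.M

set_option autoImplicit false

open scoped commutatorElement

namespace FS

open H63.St Cfsg Tits MulAction

namespace L4

variable {hn : Ok 4} {G G' : Type*} [Group G] [Group G']

theorem cm_eq (i j : Fin 2) : cm (Dih hn) i j = if i = j then 1 else 4 := by
  fin_cases i <;> fin_cases j
  exacts [cm_self hn _, cm01 hn, cm10 hn, cm_self hn _]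

theorem cm4 {j k : Fin 2} (h : j ≠ k) : cm (Dih hn) j k = 4 := by rw [cm_eq, if_neg h]

theorem rho_swap {Φ I : Type*} (R : Roots Φ I) (j k : I) (n : ZMod 8) :
    rho R k j n = rho R j k (5 - n) := by
  fin_cases n <;> rfl

theorem win (E : RGD (Dih hn) G) (hE : E.Faith) {j k : Fin 2} (h : j ≠ k) :
    ∃ W W' : Win G, (∀ n, W.U n = E.X (rho (Dih hn) j k n)) ∧
      (∀ n, W'.U n = E.X (rho (Dih hn) k j n)) ∧ (FS4.Ori W ∨ FS4.Ori W') := by
  have := fin hn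
  obtain ⟨W, hW⟩ := exists_win (full hn) hE (cm4 h)
  obtain ⟨W', hW'⟩ := exists_win (full hn) hE (cm4 h.symm)
  exact ⟨W, W', hW, hW', FS4.ori W W' fun n => by rw [hW, hW', rho_swap]⟩

theorem card1 {E : RGD (Dih hn) G} {j k : Fin 2} {W : Win G}
    (h : ∀ n, W.U n = E.X (rho (Dih hn) j k n)) :
    Nat.card (W.U 1) = q E j ∧ Nat.card (W.U 4) = q E k ∧ (FS4.Fl W ↔ Flag E j k) := by
  refine ⟨by rw [h]; rfl, by rw [h]; rfl, ?_⟩
  rw [FS4.Fl, h, h]; rfl

theorem ori_of_fl {W : Win G} (h : FS4.Fl W) : FS4.Ori W := by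
  refine ⟨fun k => ?_, Or.inl h⟩
  obtain ⟨b, hb, b1⟩ := W.ne 2
  have : FS4.V W = ⊥ := Subgroup.commutator_eq_bot_iff_le_centralizer.2 fun a ha =>
    Subgroup.mem_centralizer_iff.2 fun c hc => (h a ha c hc).symm.eq
  exact b1 (Subgroup.mem_bot.1 (this ▸ k hb))

theorem exists_g : ∀ j k j' k' : Fin 2, j ≠ k → j' ≠ k' → ∃ g : Fin 2 → Fin 2,
    Function.Surjective g ∧ g j = j' ∧ g k = k' ∧
      ∀ a b, (if a = b then 1 else 4) = mB 2 (g a) (g b) := by
  decide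

theorem model {j k : Fin 2} (h : j ≠ k) {fl : Prop} {a b : ℕ} (hp : FS4.Par' fl a b)
    (hm : FS4.Md a b) : ∃ (G' : Type) (_ : Group G') (_ : Finite G') (E : RGD (Dih hn) G') (W : Win G'),
      E.Faith ∧ E.Gp = ⊤ ∧ (IsSimpleGroup (G' ⧸ Subgroup.center G') → Lie (G' ⧸ Subgroup.center G')) ∧
      (∀ n, W.U n = E.X (rho (Dih hn) j k n)) ∧ FS4.Ori W ∧ q E j = a ∧ q E k = b := by
  have := fin hn
  obtain ⟨Φ, G', _, _, _, R, E, j', k', c1, c2, c3, c4, c5, c6, c7⟩ := hm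
  obtain ⟨g, g1, g2, g3, g4⟩ := exists_g j k j' k' h c5
  obtain ⟨E1, a1, a2, a3, a4⟩ := transport (R := R) (R' := Dih hn) (full hn) g1
    (fun x y => by rw [cm_eq, c1, g4]) c2
  obtain ⟨W, W', hW, hW', o | o⟩ := win E1 a1.1 h
  · exact ⟨G', inferInstance, inferInstance, E1, W, a1.1, a2.trans c3, c4, hW, o,
      by rw [a3, g2, c6], by rw [a3, g3, c7]⟩
  · obtain ⟨e1, e2, e3⟩ := card1 hW'
    have p := FS4.par o
    have t1 := FS4.two_le W' 1
    have t4 := FS4.two_le W' 4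
    rw [a3, g3, c7] at e1
    rw [a3, g2, c6] at e2
    rw [e1] at p t1
    rw [e2] at p t4
    obtain rfl := hp.swap p t4 t1
    have fl' : Flag E k' j' := by
      rw [← g2, ← g3, ← a4, ← e3]
      exact (p.iff (fl' := True) (Or.inl ⟨trivial, Or.inl rfl⟩) t1).2 trivial
    obtain ⟨g, g1, g2, g3, g4⟩ := exists_g j k k' j' h c5.symm
    obtain ⟨E2, a1, a2, a3, a4⟩ := transport (R := R) (R' := Dih hn) (full hn) g1
      (fun x y => by rw [cm_eq, c1, g4]) c2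
    obtain ⟨W, -, hW, -, -⟩ := win E2 a1.1 h
    exact ⟨G', inferInstance, inferInstance, E2, W, a1.1, a2.trans c3, c4, hW,
      ori_of_fl ((card1 hW).2.2.2 (by rw [a4, g2, g3]; exact fl')),
      by rw [a3, g2, c7], by rw [a3, g3, c6]⟩

theorem main [Finite G] [IsSimpleGroup G] {E : RGD (Dih hn) G} (hE : E.Faith) (ht : E.Gp = ⊤)
    {j k : Fin 2} (h : j ≠ k) {W : Win G} (hW : ∀ n, W.U n = E.X (rho (Dih hn) j k n))
    (o : FS4.Ori W) : Lie G := by
  have := fin hn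
  have hZ : Subgroup.center G = ⊥ := by
    rcases (inferInstance : (Subgroup.center G).Normal).eq_bot_or_eq_top with h | h
    · exact h
    · obtain ⟨x, hx, x1⟩ := W.ne 1
      obtain ⟨y, hy, y1⟩ := W.ne 4
      obtain ⟨u, -, u', -, hm⟩ := W.mu 4 y hy y1
      have h3 : x ∈ W.U 3 := by
        have := (hm 1 x).1 hx
        rwa [Subgroup.mem_center_iff.1 (h ▸ Subgroup.mem_top x : x ∈ Subgroup.center G) (u * y * u'),
          mul_inv_cancel_right] at this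
      exact absurd (W.ind 1 x hx 1 (one_mem _) x⁻¹ (inv_mem h3) 1 (one_mem _) (by group)).1 x1
  obtain ⟨K, _, _, hK⟩ := FS4.exists_field o
  obtain ⟨e1, e2, -⟩ := card1 hW
  have p := FS4.par o
  rw [← hK] at p
  obtain ⟨G', _, _, E', W', b1, b2, b3, b4, b5, b6, b7⟩ := model (hn := hn) h p (FS4.md K (by
    rcases p with ⟨-, e | e⟩ | ⟨-, e⟩
    exacts [Or.inl e, Or.inr (Or.inl e), Or.inr (Or.inr e)]))
  obtain ⟨f1, f2, -⟩ := card1 b4
  obtain ⟨Y, hY⟩ := FS4.posGr o b5 (by rw [f1, b6, hK]) (by rw [f2, b7])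
  obtain ⟨V, hV⟩ := win_prod W W' hY
  obtain ⟨Z, hZ'⟩ := loc_of_win (full hn) (E := E) (E' := E') (cm4 h) V fun n => by
    rw [← hW, ← b4]; exact hV n
  have u : ({j, k} : Set (Fin 2)) = Set.univ := Set.eq_univ_of_forall fun i =>
    (by decide : ∀ j k i : Fin 2, j ≠ k → i = j ∨ i = k) j k i h
  obtain ⟨e⟩ := equiv_of_loc hE b1 ht b2 hZ (u ▸ hZ')
  exact (Main.lie_congr e).2 (b3 e.symm.isSimpleGroup)

end L4

theorem lie4 {hn : Ok 4} {G X : Type*} [Group G] [Finite G] [IsSimpleGroup G] [Finite X]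
    [MulAction G X] {p : ℕ} [Fact p.Prime] (T : Dat hn G X p) : Lie G := by
  obtain ⟨W, W', hW, hW', o | o⟩ := L4.win T.E T.faith (show (0 : Fin 2) ≠ 1 by decide)
  exacts [L4.main T.faith T.top (by decide) hW o, L4.main T.faith T.top (by decide) hW' o]

end FS
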