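import Mathlib
import Cfsg.Agent.Lib.FS.Defs
import Cfsg.Agent.Lib.FS8E.Br2
import Cfsg.Agent.Lib.FS8.Main

/-! Finite Moufang octagons: the identification. -/

set_option autoImplicit false

open scoped commutatorElement

namespace FS

open H63.St Cfsg Tits MulAction

theorem lie8 {hn : Ok 8} {G X : Type*} [Group G] [Finite G] [IsSimpleGroup G] [Finite X]
    [MulAction G X] {p : ℕ} [Fact p.Prime] (T : Dat hn G X p) : Lie G := by
  have h := FS8E.B2.iso_of_main _ (FS8E.B2.toW8_gen T.E T.faith T.top)
    (FS8.main _ (FS8E.B2.toW8_cen T.E T.faith T.pg))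
  exact .inr <| .inr <| .inr <| .inr <| .inr <| .inr <| .inr <| .inr <| .inr <| .inr <| .inr <|
    .inr <| .inr <| .inr <| .inr <| .inl h

end FS
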