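import Mathlib
import Cfsg.Agent.Lib.FS.Defs
import Cfsg.Agent.Lib.BN.Parabolic
import Cfsg.Prelude.Def_LieRecognition

set_option autoImplicit false

open scoped commutatorElement

namespace FS

open H63.St Cfsg Tits MulAction

namespace SplP

variable {G : Type*} [Group G]

/-- `B = U (B ⊓ N)` as sets. -/
theorem dec {P : BNPair G} {U : Subgroup G} (h1 : U ≤ P.B) (h2 : ∀ b ∈ P.B, ∀ u ∈ U, b * u * b⁻¹ ∈ U)
    (h3 : U ⊔ (P.B ⊓ P.N) = P.B) {b : G} (hb : b ∈ P.B) : ∃ u ∈ U, ∃ h ∈ P.B ⊓ P.N, b = u * h := by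
  let K : Subgroup G :=
    { carrier := {g | ∃ u ∈ U, ∃ h ∈ P.B ⊓ P.N, g = u * h}
      one_mem' := ⟨1, one_mem _, 1, one_mem _, by simp⟩
      mul_mem' := by
        rintro _ _ ⟨u, hu, h, hh, rfl⟩ ⟨v, hv, k, hk, rfl⟩
        exact ⟨u * (h * v * h⁻¹), mul_mem hu (h2 h hh.1 v hv), h * k, mul_mem hh hk, by group⟩
      inv_mem' := by
        rintro _ ⟨u, hu, h, hh, rfl⟩
        exact ⟨h⁻¹ * u⁻¹ * h⁻¹⁻¹, h2 _ (inv_mem hh.1) _ (inv_mem hu), h⁻¹, inv_mem hh, by group⟩ }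
  have : P.B ≤ K := by
    rw [← h3]
    exact sup_le (fun u hu => ⟨u, hu, 1, one_mem _, by simp⟩)
      fun h hh => ⟨1, one_mem _, h, h3.symm ▸ hh, by simp⟩
  have := h1
  exact ‹P.B ≤ K› hb

/-- `B` and `U` have the same orbits on `G ⧸ B`. -/
theorem orb {P : BNPair G} {U : Subgroup G} (h1 : U ≤ P.B) (h2 : ∀ b ∈ P.B, ∀ u ∈ U, b * u * b⁻¹ ∈ U)
    (h3 : U ⊔ (P.B ⊓ P.N) = P.B) {b : G} (hb : b ∈ P.B) (x : G ⧸ P.B) :
    ∃ u ∈ U, u • x = b • x := by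
  obtain ⟨g, rfl⟩ := QuotientGroup.mk_surjective x
  obtain ⟨w, hw⟩ := H13.BN.exists_mem_cell (P := P) g
  obtain ⟨n, rfl⟩ := QuotientGroup.mk_surjective w
  obtain ⟨b0, hb0, y, hy, rfl⟩ := (H13.BN.mem_cell_mk P).1 hw
  obtain ⟨u, hu, h, hh, e⟩ := dec h1 h2 h3 (mul_mem hb hb0)
  obtain ⟨v, hv, k, hk, e'⟩ := dec h1 h2 h3 hb0
  refine ⟨u * v⁻¹, mul_mem hu (inv_mem hv), ?_⟩
  rw [MulAction.Quotient.smul_mk, MulAction.Quotient.smul_mk, QuotientGroup.eq, smul_eq_mul,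
    smul_eq_mul]
  have k1 := P.conj_mem _ (inv_mem n.2) _ (mul_mem (inv_mem hk) hh)
  have : (u * v⁻¹ * (b0 * n * y))⁻¹ * (b * (b0 * n * y)) =
      y⁻¹ * ((n : G)⁻¹ * (k⁻¹ * h) * (n : G)⁻¹⁻¹) * y := by
    rw [show b * (b0 * n * y) = b * b0 * (n * y) by group, e, e']
    group
  rw [this]
  exact mul_mem (mul_mem (inv_mem hy) k1) hy

theorem mem_stab {B : Subgroup G} (g b : G) :
    b ∈ stabilizer G (g : G ⧸ B) ↔ g⁻¹ * b * g ∈ B := by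
  rw [mem_stabilizer_iff, MulAction.Quotient.smul_mk, eq_comm, QuotientGroup.eq, smul_eq_mul,
    mul_assoc]

end SplP

open SplP in
theorem spl_of_split {G : Type*} [Group G] (P : BNPair G) (hs : P.IsSplit) (c : G ⧸ P.B) :
    Spl G c := by
  obtain ⟨U, h1, h2, hn, h3⟩ := hs
  obtain ⟨g, rfl⟩ := QuotientGroup.mk_surjective c
  have m : ∀ x, x ∈ U.map (MulAut.conj g).toMonoidHom ↔ g⁻¹ * x * g ∈ U := fun x => by
    rw [Subgroup.mem_map]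
    constructor
    · rintro ⟨y, hy, rfl⟩
      simpa [mul_assoc] using hy
    · exact fun h => ⟨_, h, by simp [mul_assoc]⟩
  refine ⟨U.map (MulAut.conj g).toMonoidHom, fun x hx => (mem_stab g x).2 (h1 ((m x).1 hx)),
    fun b hb => ?_, ?_, fun b hb x => ?_⟩
  · rw [mem_stab] at hb
    rw [Subgroup.mem_set_normalizer_iff]
    intro x
    rw [SetLike.mem_coe, SetLike.mem_coe, m, m]
    constructor
    · intro h
      have := h2 _ hb _ h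
      rwa [show g⁻¹ * b * g * (g⁻¹ * x * g) * (g⁻¹ * b * g)⁻¹ = g⁻¹ * (b * x * b⁻¹) * g by group] at this
    · intro h
      have := h2 _ (inv_mem hb) _ h
      rwa [show (g⁻¹ * b * g)⁻¹ * (g⁻¹ * (b * x * b⁻¹) * g) * (g⁻¹ * b * g)⁻¹⁻¹ = g⁻¹ * x * g by
        group] at this
  · exact Group.nilpotent_of_mulEquiv (U.equivMapOfInjective _ (MulAut.conj g).injective)
  · rw [mem_stab] at hb
    obtain ⟨u, hu, e⟩ := orb h1 h2 h3 hb (g⁻¹ • x)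
    refine ⟨g * u * g⁻¹, (m _).2 (by simpa [mul_assoc] using hu), ?_⟩
    rw [mul_smul, mul_smul, e, smul_smul, smul_smul]
    congr 1
    group

end FS
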